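import Cfsg.Agent.Al.A
import Cfsg.Agent.ExA.G

/-! Alternating subgroups of `F₄(q)`: invariant subspaces of dimension at most three. -/

set_option autoImplicit false

namespace CF.Al

open CF.ExA CF.E83 Function Module

variable {K V : Type*} [Field K] [AddCommGroup V] [Module K V] [FiniteDimensional K V]

namespace Bp

theorem small [IsAlgClosed K] (c2 : (2 : K) ≠ 0) (ρ : Multiplicative (Fin 4 → ZMod 2) →* End K V)
    (hi : Injective ρ) : 4 ≤ finrank K V := by
  have h2 : ∀ g : Multiplicative (Fin 4 → ZMod 2), g ^ 2 = 1 := by decide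
  obtain ⟨b, l, h⟩ := exists_eigb (I := Fin (finrank K V)) ρ (m := 2) (by exact_mod_cast c2) h2
    (by simp)
  have k : ∀ i g, (l i g : K) = 1 ∨ (l i g : K) = -1 := fun i g => sq_eq_one_iff.1 (by
    rw [← Units.val_pow_eq_pow_val, ← map_pow, h2, map_one, Units.val_one])
  have := Nat.card_le_card_of_injective (fun g i => (l i g : K) = 1) fun g g' e => hi (b.ext fun i => by
    have h1 : (l i g : K) = 1 ↔ (l i g' : K) = 1 := (congrFun e i).to_iff
    rw [h, h]
    rcases k i g with h3 | h3
    · rw [h3, h1.1 h3]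
    · rcases k i g' with h4 | h4
      · rw [h4, h1.2 h4]
      · rw [h3, h4])
  simp only [Nat.card_eq_fintype_card, Fintype.card_multiplicative, Fintype.card_pi, ZMod.card,
    Finset.prod_const, Finset.card_univ, Fintype.card_fin, Fintype.card_prop] at this
  exact (pow_le_pow_iff_right₀ one_lt_two).1 this

variable {X : Type*} [Group X] [Finite X]

/-- the stabiliser of a subspace, as a monoid -/
def sm (r : X →* End K V) (U : Submodule K V) : Submonoid X where
  carrier := {g | ∀ v ∈ U, r g v ∈ U}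
  mul_mem' ha hb v hv := by rw [map_mul]; exact ha _ (hb v hv)
  one_mem' v hv := by rwa [map_one]

/-- the stabiliser of a subspace -/
def st (r : X →* End K V) (U : Submodule K V) : Subgroup X where
  toSubmonoid := sm r U
  inv_mem' {g} hg := (Submonoid.powers_le (P := sm r U)).2 hg
    (mem_powers_iff_mem_zpowers.2 (inv_mem (Subgroup.mem_zpowers g)))

end Bp

open Bp

variable {X A : Type*} [Group X] [Finite X] [IsSimpleGroup X] [Group A] {H : Subgroup X}
  {j : A →* X} (M : Mx H j) (hX : ∃ a b : X, a * b ≠ b * a)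
include M hX

theorem Mx.bp [Fintype A] [IsAlgClosed K] {r : X →* End K V} (c2 : (2 : K) ≠ 0)
    {E : Multiplicative (Fin 4 → ZMod 2) →* X} (hE : Injective E) {a : A → ℤ}
    (ha : ∀ (α : MulAut A) g, a (α g) = a g)
    (h3 : finrank K (LinearMap.range (∑ g, (a g : K) • r (j g))) ≤ 3) {z : X}
    (hz : ∀ v ∈ LinearMap.range (∑ g, (a g : K) • r (j g)),
      r z v ∈ LinearMap.range (∑ g, (a g : K) • r (j g))) :
    z ∈ H ∨ LinearMap.range (∑ g, (a g : K) • r (j g)) ≤ Fx r := by
  have le : H ≤ st r (LinearMap.range (∑ g, (a g : K) • r (j g))) := fun h hh => by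
    choose f hf using M.nor h hh
    let φ : A →* A := MonoidHom.mk' f fun x y => M.inj (by
      rw [map_mul, ← hf, ← hf, ← hf, map_mul, conj_mul])
    let α : MulAut A := MulEquiv.ofBijective φ (Finite.injective_iff_bijective.1 fun x y e =>
      M.inj (conj_injective ((hf x).trans ((congrArg j e).trans (hf y).symm))))
    have e : r h * (∑ g, (a g : K) • r (j g)) = (∑ g, (a g : K) • r (j g)) * r h := by
      rw [Finset.mul_sum, Finset.sum_mul, ← Equiv.sum_comp α.toEquiv fun g => (a g : K) • r (j g) * r h]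
      refine Finset.sum_congr rfl fun g _ => ?_
      rw [mul_smul_comm, smul_mul_assoc, ← map_mul, ← map_mul]
      exact congrArg₂ _ (congrArg _ (ha α g).symm)
        (congrArg r (mul_inv_eq_iff_eq_mul.1 (hf g)))
    rintro _ ⟨v, rfl⟩
    exact ⟨r h v, (LinearMap.congr_fun e v).symm⟩
  generalize LinearMap.range (∑ g, (a g : K) • r (j g)) = U at *
  refine (le.eq_or_lt.imp_left fun e => e ▸ hz).imp_right fun lt => ?_
  have tp : ∀ g, ∀ v ∈ U, r g v ∈ U := fun g => ((M.co.2 _ lt).ge trivial : g ∈ st r U)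
  let ρ : X →* End K U := ⟨⟨fun g => (r g).restrict (tp g), LinearMap.ext fun v => Subtype.ext
    (LinearMap.congr_fun (map_one r) v)⟩, fun x y => LinearMap.ext fun v => Subtype.ext
      (LinearMap.congr_fun (map_mul r x y) v)⟩
  rcases ρ.normal_ker.eq_bot_or_eq_top with e | e
  · have := small c2 (ρ.comp E) (((MonoidHom.ker_eq_bot_iff ρ).1 e).comp hE)
    omega
  · exact fun v hv => mem_Fx.2 fun g =>
      congrArg Subtype.val (LinearMap.congr_fun (e.ge trivial : g ∈ ρ.ker) ⟨v, hv⟩)

end CF.Al
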